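import Cfsg.Agent.H602.L5.Idem

/-!
# S5923: the 31 idempotents over a field of characteristic 3 (helper602)

Same as the second half of `H602/L5/Idem.lean` with `ZMod 3` replaced by a field `K` of characteristic 3.
-/

set_option autoImplicit false
set_option linter.unusedSectionVars false

open Module

namespace Cfsg.Agent.H602.L5.GK

open Cfsg.Agent.H865.L5

/-! ### The projections -/

section Rep

variable {K : Type*} [Field K] [CharP K 3] {V : Type*} [AddCommGroup V] [Module K V]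

/-- the fixed vectors of a set of elements -/
def fx (ρ : SL35 →* Module.End K V) (S : Set SL35) : Submodule K V where
  carrier := {v | ∀ g ∈ S, ρ g v = v}
  zero_mem' := fun g _ => map_zero _
  add_mem' := fun {a b} ha hb g hg => by rw [map_add, ha g hg, hb g hg]
  smul_mem' := fun c a ha g hg => by rw [map_smul, ha g hg]

theorem mem_fx {ρ : SL35 →* Module.End K V} {S : Set SL35} {v : V} : v ∈ fx ρ S ↔ ∀ g ∈ S, ρ g v = v := Iff.rfl

/-- the hypotheses -/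
structure Hyp (ρ : SL35 →* Module.End K V) : Prop where
  dimV : finrank K V = 248
  dim : finrank K (fx ρ VP) = 8
  zz : ∀ v ∈ fx ρ VP, ρ z0 (ρ z0 v) = -v
  fixS : ∀ v ∈ fx ρ US, v = 0

variable (ρ : SL35 →* Module.End K V)

theorem rho_mul (g h : SL35) (v : V) : ρ (g * h) v = ρ g (ρ h v) := by
  rw [map_mul]; rfl

/-- the projection onto the fixed vectors of `VP` -/
def ep : Module.End K V := ∑ ab : ZMod 5 × ZMod 5, ρ (vp ab.1 ab.2)

theorem ep_apply (v : V) : ep ρ v = ∑ ab : ZMod 5 × ZMod 5, ρ (vp ab.1 ab.2) v := by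
  rw [ep, LinearMap.sum_apply]

theorem ep_mem (v : V) : ep ρ v ∈ fx ρ VP := by
  rintro _ ⟨a, b, rfl⟩
  rw [ep_apply, map_sum]
  refine Fintype.sum_equiv (Equiv.addLeft (a, b)) _ _ fun ab => ?_
  rw [← rho_mul, vp_mul]
  rfl

theorem smul_25 (K : Type*) [Field K] [CharP K 3] {V : Type*} [AddCommGroup V] [Module K V] (v : V) (n : ℕ)
    (hn : n = 25) : n • v = v := by
  have h3 : ((3 : ℕ) : K) = 0 := CharP.cast_eq_zero K 3
  have h25 : ((25 : ℕ) : K) = 1 := by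
    have : (25 : ℕ) = 3 * 8 + 1 := by norm_num
    rw [this, Nat.cast_add, Nat.cast_mul, h3, zero_mul, zero_add, Nat.cast_one]
  rw [hn, ← Nat.cast_smul_eq_nsmul K, h25, one_smul]

theorem ep_of_mem {v : V} (hv : v ∈ fx ρ VP) : ep ρ v = v := by
  rw [ep_apply, Finset.sum_congr rfl fun ab _ => hv _ ⟨ab.1, ab.2, rfl⟩, Finset.sum_const, Finset.card_univ]
  exact smul_25 K v _ (by rw [Fintype.card_prod, ZMod.card])

theorem ep_mul_self : ep ρ * ep ρ = ep ρ := by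
  ext v
  exact ep_of_mem ρ (ep_mem ρ v)

theorem range_ep : LinearMap.range (ep ρ) = fx ρ VP := by
  ext v
  rw [LinearMap.mem_range]
  exact ⟨fun ⟨w, hw⟩ => hw ▸ ep_mem ρ w, fun hv => ⟨v, ep_of_mem ρ hv⟩⟩

theorem map_mem_fx {y : SL35} (hy : y ∈ P0) {v : V} (hv : v ∈ fx ρ VP) : ρ y v ∈ fx ρ VP := by
  rintro _ ⟨a, b, rfl⟩
  obtain ⟨a', b', h⟩ := conj_vp (P0.inv_mem hy) a b
  rw [inv_inv] at h
  have e : vp a b * y = y * vp a' b' := by rw [← h]; group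
  rw [← rho_mul, e, rho_mul, hv _ ⟨a', b', rfl⟩]

theorem comm_ep {y : SL35} (hy : y ∈ P0) : ρ y * ep ρ = ep ρ * ρ y := by
  classical
  have hne : ∀ ab : ZMod 5 × ZMod 5, ∃ cd : ZMod 5 × ZMod 5, y * vp ab.1 ab.2 * y⁻¹ = vp cd.1 cd.2 := fun ab => by
    obtain ⟨a', b', h⟩ := conj_vp hy ab.1 ab.2
    exact ⟨(a', b'), h⟩
  choose c hc using hne
  have hvinj : ∀ ab cd : ZMod 5 × ZMod 5, vp ab.1 ab.2 = vp cd.1 cd.2 → ab = cd := by
    intro ab cd h
    have h1 := congrFun (congrFun (congrArg Subtype.val h) 0) 1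
    have h2 := congrFun (congrFun (congrArg Subtype.val h) 0) 2
    exact Prod.ext h1 h2
  have hinj : Function.Injective c := by
    intro ab cd h
    apply hvinj
    have h1 := (hc ab).trans ((congrArg (fun q : ZMod 5 × ZMod 5 => vp q.1 q.2) h).trans (hc cd).symm)
    exact mul_left_cancel (mul_right_cancel h1)
  have hbij : Function.Bijective c := Finite.injective_iff_bijective.1 hinj
  rw [ep, Finset.mul_sum, Finset.sum_mul]
  refine Fintype.sum_equiv (Equiv.ofBijective c hbij) _ _ fun ab => ?_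
  rw [← map_mul, ← map_mul]
  congr 1
  show y * vp ab.1 ab.2 = vp (c ab).1 (c ab).2 * y
  rw [← hc ab]
  group

/-- the sum over a transvection group is zero on the fixed vectors of `VP` -/
theorem sum_us {ρ : SL35 →* Module.End K V} (h : ∀ v ∈ fx ρ US, v = 0) {v : V} (hv : v ∈ fx ρ VP) :
    ∑ c : ZMod 5, ρ (us 0 0 c) v = 0 := by
  apply h
  rintro _ ⟨a, b, c, rfl⟩
  rw [us_eq, rho_mul]
  have h1 : ρ (vp a b) (∑ d : ZMod 5, ρ (us 0 0 d) v) = ∑ d : ZMod 5, ρ (us 0 0 d) v := by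
    rw [map_sum]
    refine Finset.sum_congr rfl fun d _ => ?_
    rw [← rho_mul, vp_us, rho_mul, hv _ ⟨_, _, rfl⟩]
  rw [h1, map_sum]
  refine Fintype.sum_equiv (Equiv.addLeft c) _ _ fun d => ?_
  rw [← rho_mul, us_mul_us]
  rfl

theorem ep_ww {ρ : SL35 →* Module.End K V} (h : ∀ v ∈ fx ρ US, v = 0) {v : V} (hv : v ∈ fx ρ VP) :
    ep ρ (ρ ww v) = 0 := by
  rw [ep_apply, Fintype.sum_prod_type]
  refine Finset.sum_eq_zero fun a _ => ?_
  have h1 : ∀ b : ZMod 5, ρ (vp a b) (ρ ww v) = ρ (vp a 0 * ww) (ρ (us 0 0 (-b)) v) := by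
    intro b
    have h2 : vp a b = vp a 0 * vp 0 b := by rw [vp_mul, add_zero, zero_add]
    rw [← rho_mul, ← rho_mul, h2, mul_assoc, vp_ww, mul_assoc]
  rw [Finset.sum_congr rfl fun b _ => h1 b, ← map_sum]
  have h3 : ∑ b : ZMod 5, ρ (us 0 0 (-b)) v = ∑ b : ZMod 5, ρ (us 0 0 b) v :=
    Fintype.sum_equiv (Equiv.neg _) _ _ fun b => rfl
  rw [h3, sum_us h hv, map_zero]

theorem ep_mul_ep {ρ : SL35 →* Module.End K V} (h : ∀ v ∈ fx ρ US, v = 0) {x : SL35} (hx : x ∉ P0) :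
    ep ρ * ρ x * ep ρ = 0 := by
  obtain ⟨y, hy, y', hy', rfl⟩ := exists_bruhat hx
  ext v
  show ep ρ (ρ (y * ww * y') (ep ρ v)) = 0
  have h1 : ρ y' (ep ρ v) ∈ fx ρ VP := map_mem_fx ρ hy' (ep_mem ρ v)
  have h2 := congrArg (fun f : Module.End K V => f (ρ ww (ρ y' (ep ρ v)))) (comm_ep ρ hy)
  rw [rho_mul, rho_mul]
  refine h2.symm.trans ?_
  show ρ y (ep ρ (ρ ww (ρ y' (ep ρ v)))) = 0
  rw [ep_ww h h1, map_zero]

/-! ### The 31 idempotents -/

theorem rho_inv_mul (x : SL35) : ρ x⁻¹ * ρ x = 1 := by rw [← map_mul, inv_mul_cancel, map_one]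

theorem rho_mul_inv (x : SL35) : ρ x * ρ x⁻¹ = 1 := by rw [← map_mul, mul_inv_cancel, map_one]

/-- the idempotent of the point `q` -/
def eq (q : SL35 ⧸ P0) : Module.End K V :=
  Quotient.liftOn' q (fun x => ρ x * ep ρ * ρ x⁻¹) (by
    intro x y hxy
    have h := QuotientGroup.leftRel_apply.1 hxy
    obtain ⟨z, hz⟩ : ∃ z, z = x⁻¹ * y := ⟨_, rfl⟩
    have e : y = x * z := by rw [hz]; group
    show ρ x * ep ρ * ρ x⁻¹ = ρ y * ep ρ * ρ y⁻¹
    have h1 : ρ z * ep ρ = ep ρ * ρ z := comm_ep ρ (hz ▸ h)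
    subst e
    rw [map_mul, mul_assoc (ρ x) (ρ z), h1, mul_inv_rev, map_mul ρ z⁻¹]
    calc ρ x * ep ρ * ρ x⁻¹ = ρ x * ep ρ * (ρ z * ρ z⁻¹) * ρ x⁻¹ := by rw [rho_mul_inv, mul_one]
      _ = _ := by simp only [mul_assoc])

theorem eq_mk (x : SL35) : eq ρ (x : SL35 ⧸ P0) = ρ x * ep ρ * ρ x⁻¹ := rfl

theorem eq_one : eq ρ ((1 : SL35) : SL35 ⧸ P0) = ep ρ := by
  rw [eq_mk, inv_one, map_one, one_mul, mul_one]

theorem eq_smul (g : SL35) (q : SL35 ⧸ P0) : ρ g * eq ρ q = eq ρ (g • q) * ρ g := by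
  obtain ⟨x, rfl⟩ := QuotientGroup.mk_surjective q
  show ρ g * (ρ x * ep ρ * ρ x⁻¹) = (ρ (g * x) * ep ρ * ρ (g * x)⁻¹) * ρ g
  rw [mul_inv_rev, map_mul, map_mul ρ x⁻¹]
  rw [mul_assoc _ _ (ρ g), mul_assoc (ρ x⁻¹), rho_inv_mul, mul_one]
  simp only [mul_assoc]

theorem eq_mul_self (q : SL35 ⧸ P0) : eq ρ q * eq ρ q = eq ρ q := by
  obtain ⟨x, rfl⟩ := QuotientGroup.mk_surjective q
  rw [eq_mk]
  calc ρ x * ep ρ * ρ x⁻¹ * (ρ x * ep ρ * ρ x⁻¹) = ρ x * ep ρ * (ρ x⁻¹ * ρ x) * ep ρ * ρ x⁻¹ := by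
        simp only [mul_assoc]
    _ = ρ x * (ep ρ * ep ρ) * ρ x⁻¹ := by rw [rho_inv_mul, mul_one]; simp only [mul_assoc]
    _ = _ := by rw [ep_mul_self]

theorem eq_mul_of_ne {ρ : SL35 →* Module.End K V} (h : ∀ v ∈ fx ρ US, v = 0) {q q' : SL35 ⧸ P0} (hq : q ≠ q') :
    eq ρ q * eq ρ q' = 0 := by
  obtain ⟨x, rfl⟩ := QuotientGroup.mk_surjective q
  obtain ⟨y, rfl⟩ := QuotientGroup.mk_surjective q'
  have hx : x⁻¹ * y ∉ P0 := fun h => hq (QuotientGroup.eq.2 h)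
  rw [eq_mk, eq_mk]
  calc ρ x * ep ρ * ρ x⁻¹ * (ρ y * ep ρ * ρ y⁻¹) = ρ x * (ep ρ * (ρ x⁻¹ * ρ y) * ep ρ) * ρ y⁻¹ := by
        simp only [mul_assoc]
    _ = 0 := by rw [← map_mul, ep_mul_ep h hx, mul_zero, zero_mul]

theorem finrank_range_eq (q : SL35 ⧸ P0) :
    finrank K (LinearMap.range (eq ρ q)) = finrank K (fx ρ VP) := by
  obtain ⟨x, rfl⟩ := QuotientGroup.mk_surjective q
  rw [eq_mk]
  let e : V ≃ₗ[K] V := LinearEquiv.ofLinearMap (ρ x) (ρ x⁻¹) (rho_mul_inv ρ x) (rho_inv_mul ρ x)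
  have h1 : LinearMap.range (ρ x * ep ρ * ρ x⁻¹) = (fx ρ VP).map (e : V →ₗ[K] V) := by
    rw [← range_ep]
    ext v
    rw [LinearMap.mem_range, Submodule.mem_map]
    constructor
    · rintro ⟨w, rfl⟩
      exact ⟨ep ρ (ρ x⁻¹ w), ⟨_, rfl⟩, rfl⟩
    · rintro ⟨_, ⟨w, rfl⟩, rfl⟩
      refine ⟨ρ x w, ?_⟩
      show ρ x (ep ρ (ρ x⁻¹ (ρ x w))) = ρ x (ep ρ w)
      rw [← rho_mul, inv_mul_cancel, map_one]
      rfl
  rw [h1]
  exact LinearEquiv.finrank_map_eq e _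

theorem sum_eq [FiniteDimensional K V] {ρ : SL35 →* Module.End K V} (h : Hyp ρ) :
    ∑ q : SL35 ⧸ P0, eq ρ q = 1 := by
  refine sum_eq_one_of_finrank _ (eq_mul_self ρ) (fun q q' hq => eq_mul_of_ne h.fixS hq) ?_
  rw [Finset.sum_congr rfl fun q _ => finrank_range_eq ρ q, Finset.sum_const, Finset.card_univ,
    ← Nat.card_eq_fintype_card, card_quot, h.dim, h.dimV]
  rfl

/-- decomposition of a vector -/
theorem sum_eq_apply [FiniteDimensional K V] {ρ : SL35 →* Module.End K V} (h : Hyp ρ) (v : V) :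
    ∑ q : SL35 ⧸ P0, eq ρ q v = v := by
  have h1 := congrArg (fun f : Module.End K V => f v) (sum_eq h)
  refine Eq.trans ?_ h1
  show _ = (∑ q : SL35 ⧸ P0, eq ρ q) v
  rw [LinearMap.sum_apply]

theorem eq_apply_eq (x : SL35) (v : V) : eq ρ (x : SL35 ⧸ P0) v = ρ x (ep ρ (ρ x⁻¹ v)) := rfl

end Rep

/-! ### Good homomorphisms -/

section Good

variable {K : Type} [Field K]

theorem finrank_idx : finrank K (Cfsg.Lie.chevE8.Idx → K) = 248 := by
  rw [Module.finrank_fintype_fun_eq_card, card_idx]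

/-- the representation of `SL₃(5)` defined by `f` -/
noncomputable def rp (f : SL35 →* ↥(Cfsg.Lie.chevE8.group K)) : SL35 →* Module.End K (Cfsg.Lie.chevE8.Idx → K) where
  toFun x := ac (f x)
  map_one' := by
    apply LinearMap.ext
    intro v
    rw [map_one, ac_one]
    rfl
  map_mul' x y := by
    apply LinearMap.ext
    intro v
    rw [map_mul, ac_mul]
    rfl

theorem rp_apply (f : SL35 →* ↥(Cfsg.Lie.chevE8.group K)) (x : SL35) (v : Cfsg.Lie.chevE8.Idx → K) :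
    rp f x v = ac (f x) v := rfl

theorem fx_rp (f : SL35 →* ↥(Cfsg.Lie.chevE8.group K)) (S : Set SL35) : fx (rp f) S = Fx (f '' S) := by
  ext v
  constructor
  · rintro h _ ⟨g, hg, rfl⟩
    exact h g hg
  · intro h g hg
    exact h _ ⟨g, hg, rfl⟩

theorem hyp_rp {f : SL35 →* ↥(Cfsg.Lie.chevE8.group K)} (h : Good f) : Hyp (rp f) where
  dimV := finrank_idx
  dim := by rw [fx_rp]; exact h.dim
  zz v hv := h.zz v (by rw [← fx_rp]; exact hv)
  fixS v hv := h.fixS v (by rw [← fx_rp]; exact hv)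

end Good

end Cfsg.Agent.H602.L5.GK
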